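import Cfsg.Agent.Chars.Fi22O7.P4.Data
import Cfsg.Agent.Chars.Fi22O7.P4.FCheck0
import Cfsg.Agent.Chars.Fi22O7.P4.RCheck0

/-!
# The table is checked
-/

set_option autoImplicit false
set_option maxRecDepth 20000

namespace Cfsg.Agent.Chars.Fi22O7.P4

open Cfsg.Agent.Screen.CosetEnum

theorem checked : tbl.Checked where
  facts b hb := by
    have hb' : b < 10 := by
      have : tbl.toCert.nf = 240 := rfl
      omega
    by_cases h0 : b < 10
    · exact blocks_spec _ _ _ fcheck0 b (by omega) h0
    omega
  rows c hc := by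
    have hc' : c < 120 := hc
    by_cases h0 : c < 120
    · exact Tab.rows_spec _ _ rcheck0 c (by omega) h0 hc
    omega
  base := by decide +kernel

end Cfsg.Agent.Chars.Fi22O7.P4
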