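import Cfsg.Agent.Screen.CosetEnum.Table
import Cfsg.Agent.Chars.Fi22O7.P4.Facts
import Cfsg.Agent.Chars.Fi22O7.P4.Steps
import Cfsg.Agent.Chars.Fi22O7.P4.Rows
import Cfsg.Agent.Chars.Fi22O7.P4.Cosets

/-!
# The table
-/

set_option autoImplicit false
set_option maxRecDepth 20000

namespace Cfsg.Agent.Chars.Fi22O7.P4

open Cfsg.Agent.Screen.CosetEnum

/-- The certificate and table. -/
def tbl : Tab where
  ng := 4
  nf := 240
  facts := factTree
  steps := stepTree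
  rels := [[0, 0],
    [1, 1],
    [2, 2],
    [3, 3],
    [1, 0, 1, 0, 1, 0],
    [2, 0, 2, 0],
    [3, 0, 3, 0],
    [2, 1, 2, 1, 2, 1],
    [3, 1, 3, 1],
    [3, 2, 3, 2, 3, 2]]
  subs := []
  n := 120
  tab := rowTree
  cos := cosetTree

end Cfsg.Agent.Chars.Fi22O7.P4
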